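import Cfsg.Agent.Lib.Blichfeldt.Small
import Cfsg.Agent.Lib.Blichfeldt.Hall
import Cfsg.Agent.Lib.Char.Monomial
import Mathlib.NumberTheory.PrimeCounting
import Mathlib.Algebra.Group.Action.Sigma

/-!
The classical index bound for an abelian normal subgroup of a finite linear group.
-/

set_option autoImplicit false
set_option linter.style.haveILetI false

open Subgroup
open scoped commutatorElement

namespace Cfsg.Agent.Lib.Blichfeldt

universe u

variable {G : Type u} [Group G]

theorem Faith.exists_multiplicity [Finite G] {χ : G → ℂ} {N : ℕ} (h : Faith χ N) :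
    ∃ S : Finset (IrrCharacter G), (∑ φ ∈ S, charDegree (φ : G → ℂ)) ≤ N ∧
      ∀ g : G, (∀ φ ∈ S, (φ : G → ℂ) g = (φ : G → ℂ) 1) → g = 1 := by
  letI := Fintype.ofFinite G
  classical
  obtain ⟨m, hm⟩ := Char.isCharacter_eq_sum h.char
  refine ⟨Finset.univ.filter fun φ => m φ ≠ 0, ?_, fun g hg => h.faith g ?_⟩
  · have hsum : charDegree χ = ∑ ψ : IrrCharacter G, m ψ * charDegree (ψ : G → ℂ) := by
      apply Char.charDegree_eq_of_apply_one
      rw [hm, Finset.sum_apply]
      push_cast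
      refine Finset.sum_congr rfl fun ψ _ => ?_
      rw [Pi.smul_apply, smul_eq_mul, Char.apply_one_eq_charDegree (Char.isCharacter_of_isIrr ψ.2)]
    refine le_trans ?_ (hsum ▸ h.deg)
    refine le_trans (Finset.sum_le_sum fun φ hφ => ?_)
      (Finset.sum_le_univ_sum_of_nonneg fun _ => Nat.zero_le _)
    exact Nat.le_mul_of_pos_left _ (Nat.pos_of_ne_zero (Finset.mem_filter.mp hφ).2)
  · rw [hm, Finset.sum_apply, Finset.sum_apply]
    refine Finset.sum_congr rfl fun φ _ => ?_
    by_cases h0 : m φ = 0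
    · simp [h0]
    · simp only [Pi.smul_apply, smul_eq_mul]
      rw [hg φ (Finset.mem_filter.mpr ⟨Finset.mem_univ _, h0⟩)]

/-- A nilpotent linear group of degree `N` has an abelian subgroup of index dividing `N!`. -/
theorem exists_abelian_index_dvd [Finite G] [Group.IsNilpotent G] {χ : G → ℂ} {N : ℕ}
    (h : Faith χ N) :
    ∃ B : Subgroup G, (∀ x ∈ B, ∀ y ∈ B, x * y = y * x) ∧ B.index ∣ N.factorial := by
  letI := Fintype.ofFinite G
  classical
  obtain ⟨S, hS, hfaith⟩ := h.exists_multiplicity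
  choose H lam hlam using fun φ : S => Char.nilpotent_monomial _ G rfl _ φ.1.2
  let f : G →* Equiv.Perm (Σ φ : S, G ⧸ H φ) := MulAction.toPermHom G _
  refine ⟨f.ker, ?_, ?_⟩
  · intro a ha b hb
    rw [← commutatorElement_eq_one_iff_mul_comm]
    refine hfaith _ fun φ hφ => ?_
    have hmem : ∀ g ∈ f.ker, ∀ x : G, x⁻¹ * g * x ∈ H ⟨φ, hφ⟩ := by
      intro g hg x
      have h1 := Equiv.ext_iff.mp (MonoidHom.mem_ker.mp hg) ⟨⟨φ, hφ⟩, (x : G ⧸ H ⟨φ, hφ⟩)⟩
      simp only [f, MulAction.toPermHom_apply, MulAction.toPerm_apply, Equiv.Perm.coe_one, id_eq,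
        Sigma.smul_mk, Sigma.mk.injEq, heq_eq_eq, true_and] at h1
      change ((g * x : G) : G ⧸ H ⟨φ, hφ⟩) = (x : G ⧸ H ⟨φ, hφ⟩) at h1
      rw [QuotientGroup.eq] at h1
      have := inv_mem h1
      simpa only [mul_inv_rev, inv_inv, mul_assoc] using this
    rw [show (φ : G → ℂ) = indFun (H ⟨φ, hφ⟩) (fun z => (lam ⟨φ, hφ⟩ z : ℂ)) from hlam ⟨φ, hφ⟩]
    simp only [indFun]
    congr 1
    refine Finset.sum_congr rfl fun x _ => ?_
    set K := H ⟨φ, hφ⟩
    set l := lam ⟨φ, hφ⟩
    have he : x⁻¹ * ⁅a, b⁆ * x =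
        ((⁅(⟨_, hmem a ha x⟩ : K), (⟨_, hmem b hb x⟩ : K)⁆ : K) : G) := by
      simp only [commutatorElement_def, Subgroup.coe_mul, Subgroup.coe_inv]
      group
    have h1 : x⁻¹ * 1 * x = ((1 : K) : G) := by simp
    rw [he, h1, Char.extendByZero_coe, Char.extendByZero_coe, map_commutatorElement,
      commutatorElement_eq_one_iff_commute.mpr (Commute.all _ _), map_one]
  · rw [index_ker]
    refine (card_subgroup_dvd_card _).trans ?_
    rw [Nat.card_eq_fintype_card, Fintype.card_perm, Fintype.card_sigma]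
    refine Nat.factorial_dvd_factorial ?_
    refine le_trans (le_of_eq ?_) hS
    rw [← Finset.sum_coe_sort S]
    refine Finset.sum_congr rfl fun φ _ => ?_
    symm
    apply Char.charDegree_eq_of_apply_one
    rw [hlam φ, Char.indFun_one]
    simp [← Nat.card_eq_fintype_card, ← index_eq_card]

/-- The classical bound for finite linear groups. -/
theorem exists_normal_abelian_index_le [Finite G] {χ : G → ℂ} (hχ : IsCharacter G χ)
    (hfaith : ∀ g : G, χ g = χ 1 → g = 1) :
    ∃ A : Subgroup G, A.Normal ∧ (∀ x ∈ A, ∀ y ∈ A, x * y = y * x) ∧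
      A.index ≤ Nat.factorial (charDegree χ) *
        12 ^ (charDegree χ * (Nat.primeCounting (charDegree χ + 1) + 1)) := by
  classical
  obtain ⟨A, hAn, hAc, hA⟩ := exists_blichfeldt hχ hfaith
  refine ⟨A, hAn, hAc, ?_⟩
  set n := charDegree χ
  have hF : Faith χ n := ⟨hχ, hfaith, le_rfl⟩
  obtain ⟨H, hH, hHc⟩ := exists_abelian_bigHall hF
  set T := (Finset.range (n + 2)).filter Nat.Prime with hT
  have hex : ∀ p : T, ∃ X B : Subgroup G, B ≤ X ∧ (∀ x ∈ B, ∀ y ∈ B, x * y = y * x) ∧
      ¬ (p : ℕ) ∣ X.index ∧ B.relIndex X ∣ n.factorial ∧ ∃ j : ℕ, B.relIndex X = (p : ℕ) ^ j := by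
    rintro ⟨p, hp⟩
    have hp' : p.Prime := (Finset.mem_filter.mp hp).2
    haveI := Fact.mk hp'
    obtain ⟨P⟩ : Nonempty (Sylow p G) := inferInstance
    haveI : Group.IsNilpotent (P : Subgroup G) := P.isPGroup'.isNilpotent
    obtain ⟨B, hBc, hBi⟩ := exists_abelian_index_dvd (hF.restrict (P : Subgroup G))
    refine ⟨P, B.map (P : Subgroup G).subtype, map_subtype_le _, ?_, P.not_dvd_index, ?_, ?_⟩
    · rintro _ ⟨x, hx, rfl⟩ _ ⟨y, hy, rfl⟩
      rw [← map_mul, ← map_mul, hBc x hx y hy]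
    · rwa [relIndex, subgroupOf, comap_map_eq_self_of_injective (Subgroup.subtype_injective _)]
    · obtain ⟨j, hj⟩ := P.isPGroup'.index B
      exact ⟨j, by rwa [relIndex, subgroupOf, comap_map_eq_self_of_injective (Subgroup.subtype_injective _)]⟩
  choose X B hBX hBc hX hBdvd hBj using hex
  set D := (∏ p : T, A.relIndex (X p)) * A.relIndex H with hD
  have hD0 : D ≠ 0 := mul_ne_zero (Finset.prod_ne_zero_iff.mpr fun p _ => index_ne_zero_of_finite)
    index_ne_zero_of_finite
  have hdvd : A.index ∣ D := by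
    refine (Nat.dvd_iff_prime_pow_dvd_dvd _ _).mpr fun q k hq hk => ?_
    rcases Nat.eq_zero_or_pos k with rfl | hk0
    · simp
    have key : ∀ Y : Subgroup G, ¬ q ∣ Y.index → q ^ k ∣ A.relIndex Y := by
      intro Y hY
      have e : (A ⊓ Y).index = A.relIndex Y * Y.index := by
        rw [← relIndex_mul_index (inf_le_right : A ⊓ Y ≤ Y), inf_relIndex_right]
      have h1 : q ^ k ∣ A.relIndex Y * Y.index := e ▸ hk.trans (index_dvd_of_le inf_le_left)
      exact ((hq.coprime_iff_not_dvd.mpr hY).pow_left k).dvd_of_dvd_mul_right h1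
    by_cases hqn : n + 1 < q
    · exact (key H (hH.2 q hq hqn)).trans (Dvd.intro_left _ rfl)
    · have hqT : q ∈ T := Finset.mem_filter.mpr ⟨Finset.mem_range.mpr (by omega), hq⟩
      refine ((key (X ⟨q, hqT⟩) (hX ⟨q, hqT⟩)).trans ?_).trans (Dvd.intro _ rfl)
      exact Finset.dvd_prod_of_mem _ (Finset.mem_univ _)
  have hle : ∀ p : T, A.relIndex (X p) ≤ 12 ^ n * (B p).relIndex (X p) := by
    intro p
    have h1 : A.relIndex (X p) ≤ (A ⊓ B p).relIndex (X p) :=
      relIndex_le_of_le_left inf_le_left index_ne_zero_of_finite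
    refine h1.trans ?_
    rw [← relIndex_mul_relIndex (A ⊓ B p) (B p) (X p) inf_le_right (hBX p), inf_relIndex_right]
    exact Nat.mul_le_mul_right _ (hA (B p) (hBc p))
  have hprod : ∏ p : T, (B p).relIndex (X p) ∣ n.factorial := by
    have key : ∀ s : Finset T, ∏ p ∈ s, (B p).relIndex (X p) ∣ n.factorial := by
      intro s
      induction s using Finset.induction_on with
      | empty => simp
      | insert a s ha ih =>
        rw [Finset.prod_insert ha]
        refine Nat.Coprime.mul_dvd_of_dvd_of_dvd ?_ (hBdvd a) ih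
        refine Nat.Coprime.prod_right fun b hb => ?_
        obtain ⟨i, hi⟩ := hBj a
        obtain ⟨j, hj⟩ := hBj b
        rw [hi, hj]
        refine Nat.Coprime.pow i j ((Nat.coprime_primes (Finset.mem_filter.mp a.2).2
          (Finset.mem_filter.mp b.2).2).mpr fun e => ha ?_)
        rwa [Subtype.ext e]
    exact key Finset.univ
  have hcard : Fintype.card T = Nat.primeCounting (n + 1) := by
    rw [Fintype.card_coe, hT, Nat.primeCounting, Nat.primeCounting', Nat.count_eq_card_filter_range]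
  calc A.index ≤ D := Nat.le_of_dvd (Nat.pos_of_ne_zero hD0) hdvd
    _ ≤ (∏ p : T, 12 ^ n * (B p).relIndex (X p)) * 12 ^ n := by
        rw [hD]
        exact Nat.mul_le_mul (Finset.prod_le_prod' fun p _ => hle p) (hA H hHc)
    _ ≤ ((12 ^ n) ^ Fintype.card T * n.factorial) * 12 ^ n := by
        rw [Finset.prod_mul_distrib, Finset.prod_const, Finset.card_univ]
        exact Nat.mul_le_mul_right _ (Nat.mul_le_mul_left _ (Nat.le_of_dvd n.factorial_pos hprod))
    _ = _ := by rw [hcard]; ring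

end Cfsg.Agent.Lib.Blichfeldt
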