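import Cfsg.Agent.Lib.Char.Degree
import Cfsg.Agent.Lib.Char.Kernel
import Mathlib.Analysis.CStarAlgebra.ContinuousLinearMap
import Mathlib.Analysis.CStarAlgebra.Spectrum
import Mathlib.Analysis.InnerProductSpace.Adjoint
import Mathlib.Analysis.InnerProductSpace.PiL2
import Mathlib.LinearAlgebra.Eigenspace.Pi
import Mathlib.LinearAlgebra.Eigenspace.Semisimple
import Mathlib.LinearAlgebra.Eigenspace.Triangularizable
import Mathlib.FieldTheory.Separable

/-!
Blichfeldt: in a finite linear group the elements whose eigenvalues lie in a short arc commute.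
-/

set_option autoImplicit false
set_option linter.style.haveILetI false

open Module

namespace Cfsg.Agent.Lib.Blichfeldt

universe u

/-- A finite linear group is a group of isometries of a Hilbert space. -/
theorem exists_unitary {G : Type u} [Group G] [Fintype G] {n : ℕ}
    (ρ : Representation ℂ G (Fin n → ℂ)) :
    ∃ (E : Type u) (_ : NormedAddCommGroup E) (_ : InnerProductSpace ℂ E)
      (_ : FiniteDimensional ℂ E) (π : G →* (E →L[ℂ] E)),
      finrank ℂ E = n ∧ (∀ g x, ‖π g x‖ = ‖x‖) ∧ ∀ g, π g = 1 → ρ g = 1 := by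
  let W := PiLp 2 (fun _ : G => EuclideanSpace ℂ (Fin n))
  let L : (Fin n → ℂ) →ₗ[ℂ] W :=
    { toFun := fun v => WithLp.toLp 2 fun g => WithLp.toLp 2 (ρ g v)
      map_add' := fun a b => by simp only [map_add]; rfl
      map_smul' := fun c a => by simp only [map_smul]; rfl }
  have hL : Function.Injective L := by
    intro a b h
    have h1 := congrArg (fun w : W => WithLp.ofLp (w 1)) h
    simpa [L] using h1
  let e := LinearEquiv.ofInjective L hL
  let E := ↥(LinearMap.range L)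
  let π : G →* (E →L[ℂ] E) :=
    { toFun := fun g => LinearMap.toContinuousLinearMap (e.toLinearMap ∘ₗ ρ g ∘ₗ e.symm.toLinearMap)
      map_one' := by ext x; simp
      map_mul' := fun a b => by ext x; simp }
  refine ⟨E, inferInstance, inferInstance, inferInstance, π, ?_, fun g x => ?_, fun g hg => ?_⟩
  · rw [← e.finrank_eq, Module.finrank_fin_fun]
  · obtain ⟨v, rfl⟩ := e.surjective x
    have h1 : π g (e v) = e (ρ g v) := by simp [π]
    rw [h1]
    show ‖L (ρ g v)‖ = ‖L v‖
    rw [PiLp.norm_eq_of_L2, PiLp.norm_eq_of_L2]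
    congr 1
    refine Fintype.sum_equiv (Equiv.mulRight g) _ _ fun k => ?_
    simp [L]
  · apply LinearMap.ext
    intro v
    have h1 : π g (e v) = e v := by rw [hg]; rfl
    have h2 : π g (e v) = e (ρ g v) := by simp [π]
    exact e.injective (h2.symm.trans h1)

variable {G : Type u} [Group G] {E : Type u} [NormedAddCommGroup E] [InnerProductSpace ℂ E]
  [FiniteDimensional ℂ E] (π : G →* (E →L[ℂ] E))

/-- An operator within `1/2` of a scalar. -/
def Small (g : G) : Prop := ∃ a : ℂ, ‖π g - a • (1 : E →L[ℂ] E)‖ < 1 / 2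

variable {π} (hπ : ∀ g x, ‖π g x‖ = ‖x‖)

omit [FiniteDimensional ℂ E] in
lemma apply_pow {g : G} {v : E} {c : ℂ} (h : π g v = c • v) (k : ℕ) :
    π (g ^ k) v = c ^ k • v := by
  induction k with
  | zero => simp
  | succ k ih => rw [pow_succ', map_mul, ContinuousLinearMap.mul_apply, ih, map_smul, h, smul_smul, pow_succ]

omit [FiniteDimensional ℂ E] in
lemma eigen_pow_orderOf {g : G} {v : E} {c : ℂ} (hv : v ≠ 0) (h : π g v = c • v) :
    c ^ orderOf g = 1 := by
  have h1 := apply_pow h (orderOf g)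
  rw [pow_orderOf_eq_one, map_one] at h1
  exact smul_left_injective ℂ hv (show c ^ orderOf g • v = (1 : ℂ) • v by simp [← h1])

include hπ

lemma norm_le_one (g : G) : ‖π g‖ ≤ 1 :=
  ContinuousLinearMap.opNorm_le_bound _ zero_le_one fun x => by rw [hπ, one_mul]

omit [FiniteDimensional ℂ E] in
lemma norm_eigen {g : G} {v : E} {c : ℂ} (hv : v ≠ 0) (h : π g v = c • v) : ‖c‖ = 1 := by
  have h1 := hπ g v
  rw [h, norm_smul] at h1
  exact (mul_eq_right₀ (norm_ne_zero_iff.mpr hv)).mp h1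

lemma star_eq (g : G) : star (π g) = π g⁻¹ := by
  have h := (π g).norm_map_iff_adjoint_comp_self.mp (hπ g)
  calc star (π g) = star (π g) * (π g * π g⁻¹) := by rw [← map_mul, mul_inv_cancel, map_one, mul_one]
    _ = π g⁻¹ := by
        rw [← mul_assoc, show star (π g) * π g = 1 by rw [ContinuousLinearMap.star_eq_adjoint]; exact h,
          one_mul]

/-- The norm of `π g - a` is controlled by the eigenvalues. -/
lemma norm_sub_lt {g : G} {a : ℂ} {r : ℝ} (hr : 0 < r)
    (h : ∀ (c : ℂ) (v : E), v ≠ 0 → π g v = c • v → ‖c - a‖ < r) :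
    ‖π g - a • (1 : E →L[ℂ] E)‖ < r := by
  rcases subsingleton_or_nontrivial E with hE | hE
  · rw [Subsingleton.elim (π g - a • (1 : E →L[ℂ] E)) 0, norm_zero]; exact hr
  set T := π g - a • (1 : E →L[ℂ] E) with hT
  haveI : IsStarNormal T := by
    refine ⟨?_⟩
    have hc : Commute (π g⁻¹) (π g) := by
      show _ * _ = _ * _
      rw [← map_mul, ← map_mul, inv_mul_cancel, mul_inv_cancel]
    rw [Commute, SemiconjBy, hT, star_sub, star_smul, star_one, star_eq hπ]
    simp only [sub_mul, mul_sub, smul_mul_assoc, mul_smul_comm, one_mul, mul_one, hc.eq, smul_sub,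
      smul_smul, mul_comm (star a) a]
    abel
  have hsr := IsStarNormal.spectralRadius_eq_nnnorm T
  obtain ⟨c, hc, hcr⟩ := spectrum.exists_nnnorm_eq_spectralRadius T
  rw [hsr, ENNReal.coe_inj] at hcr
  have hnorm : ‖c‖ = ‖T‖ := congrArg (fun x : NNReal => (x : ℝ)) hcr
  rw [← hnorm]
  have hc' : c ∈ spectrum ℂ (T : E →ₗ[ℂ] E) := by
    have e := AlgEquiv.spectrum_eq (Module.End.toContinuousLinearMap (𝕜 := ℂ) E) (T : E →ₗ[ℂ] E)
    rw [← e]
    rw [show Module.End.toContinuousLinearMap (𝕜 := ℂ) E (T : E →ₗ[ℂ] E) = T from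
      ContinuousLinearMap.ext fun x => rfl]
    exact hc
  obtain ⟨v, hv⟩ := (Module.End.hasEigenvalue_iff_mem_spectrum.mpr hc').exists_hasEigenvector
  have hv1 : T v = c • v := hv.apply_eq_smul
  have h2 : π g v = (c + a) • v := by
    rw [add_smul, ← hv1, hT]; simp
  simpa using h (c + a) v hv.2 h2

lemma small_conj {g : G} (h : Small π g) (k : G) : Small π (k * g * k⁻¹) := by
  obtain ⟨a, ha⟩ := h
  refine ⟨a, lt_of_le_of_lt ?_ ha⟩
  have e : π (k * g * k⁻¹) - a • (1 : E →L[ℂ] E) = π k * (π g - a • 1) * π k⁻¹ := by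
    rw [map_mul, map_mul, mul_sub, sub_mul, mul_smul_comm, smul_mul_assoc, mul_one, ← map_mul π k k⁻¹,
      mul_inv_cancel, map_one]
  rw [e]
  calc ‖π k * (π g - a • 1) * π k⁻¹‖ ≤ ‖π k‖ * ‖π g - a • 1‖ * ‖π k⁻¹‖ :=
        (norm_mul_le _ _).trans (mul_le_mul_of_nonneg_right (norm_mul_le _ _) (norm_nonneg _))
    _ ≤ 1 * ‖π g - a • 1‖ * 1 := by gcongr <;> exact norm_le_one hπ _
    _ = _ := by ring

lemma norm_commutator_le (x y : G) (a b : ℂ) :
    ‖π (x * y * x⁻¹ * y⁻¹) - 1‖ ≤ 2 * ‖π x - a • (1 : E →L[ℂ] E)‖ * ‖π y - b • (1 : E →L[ℂ] E)‖ := by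
  set A := π x - a • (1 : E →L[ℂ] E) with hA
  set B := π y - b • (1 : E →L[ℂ] E) with hB
  have e : π (x * y * x⁻¹ * y⁻¹) - 1 = (A * B - B * A) * π (x⁻¹ * y⁻¹) := by
    have h1 : A * B - B * A = π x * π y - π y * π x := by
      rw [hA, hB]
      simp only [sub_mul, mul_sub, smul_mul_assoc, mul_smul_comm, one_mul, mul_one, smul_sub, smul_smul,
        mul_comm b a]
      abel
    rw [h1, sub_mul, ← map_mul, ← map_mul, ← map_mul, ← map_mul]
    rw [show y * x * (x⁻¹ * y⁻¹) = 1 by group, map_one]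
    simp only [mul_assoc]
  rw [e]
  calc ‖(A * B - B * A) * π (x⁻¹ * y⁻¹)‖ ≤ ‖A * B - B * A‖ * ‖π (x⁻¹ * y⁻¹)‖ := norm_mul_le _ _
    _ ≤ ‖A * B - B * A‖ * 1 := by gcongr; exact norm_le_one hπ _
    _ ≤ ‖A * B‖ + ‖B * A‖ := by rw [mul_one]; exact norm_sub_le _ _
    _ ≤ ‖A‖ * ‖B‖ + ‖B‖ * ‖A‖ := add_le_add (norm_mul_le _ _) (norm_mul_le _ _)
    _ = _ := by ring

variable (hinj : ∀ g, π g = 1 → g = 1)
include hinj

lemma small_commute [Finite G] {x y : G} (hx : Small π x) (hy : Small π y) : Commute x y := by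
  by_contra hne
  obtain ⟨⟨x, y⟩, ⟨hx, hy, hne⟩, hmin⟩ := Set.exists_min_image
    {p : G × G | Small π p.1 ∧ Small π p.2 ∧ ¬ Commute p.1 p.2} (fun p => ‖π p.2 - 1‖)
    (Set.toFinite _) ⟨(x, y), hx, hy, hne⟩
  obtain ⟨a, ha⟩ := hx
  obtain ⟨b, hb⟩ := hy
  simp only [Set.mem_setOf_eq, Prod.forall] at hmin
  set z := x * y * x⁻¹ * y⁻¹ with hz
  have hy0 : 0 < ‖π y - 1‖ := by
    rw [norm_pos_iff, sub_ne_zero]
    exact fun h => hne (by rw [hinj y h]; exact Commute.one_right x)
  have hzsmall : Small π z := by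
    refine ⟨1, ?_⟩
    rw [one_smul]
    refine (norm_commutator_le hπ x y a b).trans_lt ?_
    nlinarith [norm_nonneg (π y - b • (1 : E →L[ℂ] E)), norm_nonneg (π x - a • (1 : E →L[ℂ] E))]
  have hzlt : ‖π z - 1‖ < ‖π y - 1‖ := by
    refine (norm_commutator_le hπ x y a 1).trans_lt ?_
    rw [one_smul]
    nlinarith [norm_nonneg (π x - a • (1 : E →L[ℂ] E))]
  have hzc : ∀ w, Small π w → Commute w z := by
    intro w hw
    by_contra h
    exact absurd (hmin w z ⟨hw, hzsmall, h⟩) (not_le.mpr hzlt)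
  have hzx : Commute x z := hzc x ⟨a, ha⟩
  have hzy : Commute y z := hzc y ⟨b, hb⟩
  have hzne : z ≠ 1 := fun h => hne (commutatorElement_eq_one_iff_commute.mp h)
  have hex : ∃ (μ : ℂ) (v : E), v ≠ 0 ∧ π z v = μ • v ∧ μ ≠ 1 := by
    by_contra! hall
    apply hzne
    refine hinj z (sub_eq_zero.mp (norm_le_zero_iff.mp (le_of_forall_pos_lt_add fun ε hε => ?_)))
    have := norm_sub_lt hπ (g := z) (a := 1) hε fun c v hv hcv => by
      rw [hall c v hv hcv, sub_self, norm_zero]; exact hε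
    rw [one_smul] at this
    linarith
  obtain ⟨μ, v₁, hv₁, hv₁z, hμ1⟩ := hex
  have hμz : μ ^ orderOf z = 1 := eigen_pow_orderOf hv₁ hv₁z
  have hμ0 : μ ≠ 0 := fun h => by simp [h, zero_pow (orderOf_pos z).ne'] at hμz
  set W := Module.End.eigenspace (π z : E →ₗ[ℂ] E) μ with hW
  have hWy : ∀ w ∈ W, (π y : E →ₗ[ℂ] E) w ∈ W := by
    intro w hw
    rw [hW, Module.End.mem_eigenspace_iff] at hw ⊢
    change π z (π y w) = μ • π y w
    rw [← ContinuousLinearMap.mul_apply, ← map_mul, ← hzy.eq, map_mul, ContinuousLinearMap.mul_apply]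
    change π z w = μ • w at hw
    rw [hw, map_smul]
  haveI : Nontrivial W := ⟨⟨⟨v₁, Module.End.mem_eigenspace_iff.mpr hv₁z⟩, 0,
    fun h => hv₁ (congrArg Subtype.val h)⟩⟩
  obtain ⟨lam, hlam⟩ := Module.End.exists_eigenvalue ((π y : E →ₗ[ℂ] E).restrict hWy)
  obtain ⟨⟨v, hvW⟩, hv⟩ := hlam.exists_hasEigenvector
  have hv0 : v ≠ 0 := fun h => hv.2 (Subtype.ext h)
  have hyv : π y v = lam • v := congrArg Subtype.val hv.apply_eq_smul
  have hzv : π z v = μ • v := Module.End.mem_eigenspace_iff.mp hvW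
  have key : ∀ k : ℕ, π z (π (x ^ k) v) = μ • π (x ^ k) v ∧
      π y (π (x ^ k) v) = (lam * μ⁻¹ ^ k) • π (x ^ k) v := by
    intro k
    induction k with
    | zero => simpa using ⟨hzv, hyv⟩
    | succ k ih =>
      obtain ⟨ih1, ih2⟩ := ih
      have hs : π (x ^ (k + 1)) v = π x (π (x ^ k) v) := by rw [pow_succ' x k, map_mul]; rfl
      rw [hs]
      set w := π (x ^ k) v
      have h1 : π z (π x w) = μ • π x w := by
        rw [← ContinuousLinearMap.mul_apply, ← map_mul, ← hzx.eq, map_mul,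
          ContinuousLinearMap.mul_apply, ih1, map_smul]
      refine ⟨h1, ?_⟩
      have h2 : π z (π y (π x w)) = π x (π y w) := by
        simp only [← ContinuousLinearMap.mul_apply, ← map_mul]
        rw [show z * (y * x) = x * y by rw [hz]; group]
      have h3 : π z (π y (π x w)) = π y (μ • π x w) := by
        rw [← h1]
        simp only [← ContinuousLinearMap.mul_apply, ← map_mul]
        rw [← mul_assoc, ← hzy.eq, mul_assoc]
      rw [h2, ih2, map_smul, map_smul] at h3
      calc π y (π x w) = μ⁻¹ • (μ • π y (π x w)) := by rw [smul_smul, inv_mul_cancel₀ hμ0, one_smul]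
        _ = (lam * μ⁻¹ ^ (k + 1)) • π x w := by rw [← h3, smul_smul, pow_succ]; congr 1; ring
  have hpos : ∀ k : ℕ, 0 < ((starRingEnd ℂ) b * (lam * μ⁻¹ ^ k)).re := by
    intro k
    set w := π (x ^ k) v with hw
    have hw0 : w ≠ 0 := fun h => hv0 (norm_eq_zero.mp (by rw [← hπ (x ^ k), ← hw, h, norm_zero]))
    set c := lam * μ⁻¹ ^ k
    have hc := (key k).2
    have h1 : ‖c‖ = 1 := norm_eigen hπ hw0 hc
    have h2 : ‖c - b‖ < 1 / 2 := by
      have := (π y - b • (1 : E →L[ℂ] E)).le_opNorm w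
      rw [ContinuousLinearMap.sub_apply, ContinuousLinearMap.smul_apply,
        ContinuousLinearMap.one_apply, hc, ← sub_smul, norm_smul] at this
      exact lt_of_le_of_lt (le_of_mul_le_mul_right this (norm_pos_iff.mpr hw0)) hb
    have h3 : Complex.normSq (c - b) < 1 / 4 := by
      rw [Complex.normSq_eq_norm_sq]; nlinarith [norm_nonneg (c - b)]
    have h4 : Complex.normSq c = 1 := by rw [Complex.normSq_eq_norm_sq, h1, one_pow]
    rw [Complex.normSq_sub, h4] at h3
    have h5 := Complex.normSq_nonneg b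
    rw [mul_comm]
    linarith
  have hm : μ⁻¹ ^ orderOf z = 1 := by rw [inv_pow, hμz, inv_one]
  have hsum : ∑ k ∈ Finset.range (orderOf z), μ⁻¹ ^ k = 0 := by
    have h := geom_sum_mul μ⁻¹ (orderOf z)
    rw [hm, sub_self, mul_eq_zero] at h
    exact h.resolve_right (sub_ne_zero.mpr (fun h => hμ1 (inv_eq_one.mp h)))
  have h0 : 0 < (∑ k ∈ Finset.range (orderOf z), (starRingEnd ℂ) b * (lam * μ⁻¹ ^ k)).re := by
    rw [Complex.re_sum]
    exact Finset.sum_pos (fun k _ => hpos k) ⟨0, Finset.mem_range.mpr (orderOf_pos z)⟩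
  rw [← Finset.mul_sum, ← Finset.mul_sum, hsum, mul_zero, mul_zero] at h0
  simp at h0

omit hinj

/-- The arc containing a number of norm one. -/
noncomputable def label (w : ℂ) : Fin 12 :=
  ⟨(⌊(w.arg + Real.pi) * 6 / Real.pi⌋ % 12).toNat, by omega⟩

omit hπ in
omit [FiniteDimensional ℂ E] in
lemma dist_of_label {w w' : ℂ} (hw : ‖w‖ = 1) (hw' : ‖w'‖ = 1) (h : label w = label w') :
    ‖w⁻¹ * w' - ((Real.sqrt 3 / 2 : ℝ) : ℂ)‖ < 1 / 2 := by
  have hπ0 := Real.pi_pos
  set t := (w.arg + Real.pi) * 6 / Real.pi with ht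
  set t' := (w'.arg + Real.pi) * 6 / Real.pi with ht'
  have h' : ⌊t⌋ % 12 = ⌊t'⌋ % 12 := by
    have := congrArg Fin.val h
    simp only [label, ← ht, ← ht'] at this
    omega
  obtain ⟨j, hj⟩ : (12 : ℤ) ∣ ⌊t'⌋ - ⌊t⌋ := Int.dvd_of_emod_eq_zero (by omega)
  set θ := w'.arg - w.arg - 2 * Real.pi * j with hθ
  have hθt : θ * 6 / Real.pi = (t' - ⌊t'⌋) - (t - ⌊t⌋) := by
    have : (⌊t'⌋ : ℝ) - ⌊t⌋ = 12 * (j : ℝ) := by exact_mod_cast hj
    have e : θ * 6 / Real.pi = (t' - t) - 12 * j := by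
      rw [hθ, ht, ht']; field_simp; ring
    linarith
  have hθb : |θ| < Real.pi / 6 := by
    have h1 : |θ * 6 / Real.pi| < 1 := by
      rw [hθt, abs_lt]
      constructor <;> linarith [Int.floor_le t, Int.floor_le t', Int.lt_floor_add_one t,
        Int.lt_floor_add_one t']
    rw [abs_div, abs_mul, abs_of_pos hπ0, div_lt_one hπ0] at h1
    norm_num at h1
    linarith
  have hcos : Real.sqrt 3 / 2 < Real.cos θ := by
    rw [← Real.cos_pi_div_six, ← Real.cos_abs θ]
    exact Real.cos_lt_cos_of_nonneg_of_le_pi (abs_nonneg θ) (by linarith) hθb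
  have hre : (w⁻¹ * w').re = Real.cos θ := by
    have hw0 : w ≠ 0 := fun h => by simp [h] at hw
    have hw0' : w' ≠ 0 := fun h => by simp [h] at hw'
    have e1 : θ = (w'.arg - w.arg) - (j : ℝ) * (2 * Real.pi) := by rw [hθ]; ring
    rw [e1, Real.cos_sub_int_mul_two_pi, Real.cos_sub, Complex.cos_arg hw0, Complex.cos_arg hw0',
      Complex.sin_arg, Complex.sin_arg, hw, hw', Complex.mul_re, Complex.inv_re, Complex.inv_im,
      Complex.normSq_eq_norm_sq, hw]
    ring
  have hn : Complex.normSq (w⁻¹ * w') = 1 := by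
    rw [Complex.normSq_eq_norm_sq, norm_mul, norm_inv, hw, hw']; norm_num
  have hlt : Complex.normSq (w⁻¹ * w' - ((Real.sqrt 3 / 2 : ℝ) : ℂ)) < 1 / 4 := by
    rw [Complex.normSq_sub, hn, Complex.normSq_ofReal, Complex.conj_ofReal, mul_comm (w⁻¹ * w'),
      Complex.re_ofReal_mul, hre]
    have h3 : Real.sqrt 3 ^ 2 = 3 := Real.sq_sqrt (by norm_num)
    nlinarith [Real.sqrt_nonneg 3, Real.sqrt_pos.mpr (show (0:ℝ) < 3 by norm_num)]
  rw [Complex.normSq_eq_norm_sq] at hlt
  nlinarith [norm_nonneg (w⁻¹ * w' - ((Real.sqrt 3 / 2 : ℝ) : ℂ))]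

lemma index_small_le [Finite G] (H : Subgroup G) (hH : ∀ x ∈ H, ∀ y ∈ H, x * y = y * x)
    (A : Subgroup G) (hA : ∀ g, Small π g → g ∈ A) :
    (A.subgroupOf H).index ≤ 12 ^ finrank ℂ E := by
  set f : H → Module.End ℂ E := fun h => (π h : E →ₗ[ℂ] E) with hf
  have hfc : ∀ i j, Commute (f i) (f j) := by
    intro i j
    apply LinearMap.ext
    intro v
    change π i (π j v) = π j (π i v)
    rw [← ContinuousLinearMap.mul_apply, ← map_mul, hH i i.2 j j.2, map_mul]
    rfl
  have hmaps : ∀ i j φ, Set.MapsTo (f i) ((f j).maxGenEigenspace φ) ((f j).maxGenEigenspace φ) :=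
    fun i j φ => Module.End.mapsTo_maxGenEigenspace_of_comm (hfc j i) φ
  have hgen : ∀ i φ, (f i).maxGenEigenspace φ = (f i).eigenspace φ := by
    intro i φ
    apply Module.End.IsFinitelySemisimple.maxGenEigenspace_eq_eigenspace
    refine Module.End.isFinitelySemisimple_iff_isSemisimple.mpr
      (Module.End.isSemisimple_of_squarefree_aeval_eq_zero
        (p := Polynomial.X ^ orderOf (i : G) - Polynomial.C (1 : ℂ)) ?_ ?_)
    · exact (Polynomial.separable_X_pow_sub_C 1 (Nat.cast_ne_zero.mpr (orderOf_pos _).ne')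
        one_ne_zero).squarefree
    · have hp : ∀ k : ℕ, f i ^ k = (π ((i : G) ^ k) : E →ₗ[ℂ] E) := by
        intro k
        induction k with
        | zero => simp [Module.End.one_eq_id]
        | succ k ih => rw [pow_succ, ih, pow_succ (i : G), map_mul]; rfl
      rw [map_sub, map_pow, Polynomial.aeval_X, Polynomial.aeval_C, hp, pow_orderOf_eq_one, map_one π,
        map_one, sub_eq_zero]
      rfl
  have htop := Module.End.iSup_iInf_maxGenEigenspace_eq_top_of_forall_mapsTo f hmaps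
    fun i => Module.End.iSup_maxGenEigenspace_eq_top (f i)
  have hind := Module.End.independent_iInf_maxGenEigenspace_of_forall_mapsTo f hmaps
  let X := {c : H → ℂ // (⨅ i, (f i).maxGenEigenspace (c i)) ≠ ⊥}
  haveI : Fintype X := (WellFoundedGT.finite_ne_bot_of_iSupIndep hind).fintype
  have hX : Fintype.card X ≤ finrank ℂ E := hind.subtype_ne_bot_le_finrank
  have hvec : ∀ c : X, ∃ v : E, v ≠ 0 ∧ ∀ i : H, π (i : G) v = c.1 i • v := by
    intro c
    obtain ⟨v, hv, hv0⟩ := Submodule.exists_mem_ne_zero_of_ne_bot c.2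
    refine ⟨v, hv0, fun i => ?_⟩
    have := (Submodule.mem_iInf _).mp hv i
    rw [hgen, Module.End.mem_eigenspace_iff] at this
    exact this
  have hcover : ∀ (g : H) (lam : ℂ) (v : E), v ≠ 0 → π (g : G) v = lam • v →
      ∃ c : X, c.1 g = lam := by
    intro g lam v hv hgv
    by_contra! hno
    have hle : (⨆ c : H → ℂ, ⨅ i, (f i).maxGenEigenspace (c i)) ≤
        ⨆ (μ : ℂ) (_ : μ ≠ lam), (f g).maxGenEigenspace μ := by
      refine iSup_le fun c => ?_
      by_cases hc : (⨅ i, (f i).maxGenEigenspace (c i)) = ⊥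
      · rw [hc]; exact bot_le
      · exact (iInf_le _ g).trans (le_iSup₂_of_le (c g) (hno ⟨c, hc⟩) le_rfl)
    rw [htop] at hle
    have hv' : v ∈ (f g).maxGenEigenspace lam := by
      rw [hgen, Module.End.mem_eigenspace_iff]; exact hgv
    exact hv (Submodule.disjoint_def.mp (Module.End.independent_maxGenEigenspace (f g) lam) v hv'
      (hle Submodule.mem_top))
  let lab : H → X → Fin 12 := fun h c => label (c.1 h)
  have hlab : ∀ h k : H, lab h = lab k → h⁻¹ * k ∈ A.subgroupOf H := by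
    intro h k hhk
    apply hA
    refine ⟨((Real.sqrt 3 / 2 : ℝ) : ℂ), norm_sub_lt hπ (by norm_num) fun lam v hv hlv => ?_⟩
    obtain ⟨c, rfl⟩ := hcover (h⁻¹ * k) lam v hv hlv
    obtain ⟨u, hu, huc⟩ := hvec c
    have hk := huc k
    have hh := huc h
    have hq := huc (h⁻¹ * k)
    have hh0 : c.1 h ≠ 0 := fun h0 => by
      have := norm_eigen hπ hu hh; simp [h0] at this
    have h3 : c.1 k = c.1 h * c.1 (h⁻¹ * k) := by
      apply smul_left_injective ℂ hu
      show c.1 k • u = _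
      dsimp only
      rw [← hk, mul_comm, ← smul_smul, ← hh, ← map_smul, ← hq]
      rw [← ContinuousLinearMap.mul_apply, ← map_mul, ← Subgroup.coe_mul, mul_inv_cancel_left]
    have h4 : c.1 (h⁻¹ * k) = (c.1 h)⁻¹ * c.1 k := by rw [h3, inv_mul_cancel_left₀ hh0]
    rw [h4]
    exact dist_of_label (norm_eigen hπ hu hh) (norm_eigen hπ hu hk) (congrFun hhk c)
  have hinjl : Function.Injective fun q : H ⧸ A.subgroupOf H => lab q.out := by
    intro q r hqr
    rw [← QuotientGroup.out_eq' q, ← QuotientGroup.out_eq' r, QuotientGroup.eq]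
    exact hlab _ _ hqr
  classical
  rw [Subgroup.index_eq_card]
  refine (Nat.card_le_card_of_injective _ hinjl).trans ?_
  rw [Nat.card_eq_fintype_card, Fintype.card_fun, Fintype.card_fin]
  exact Nat.pow_le_pow_right (by norm_num) hX

include hinj in
theorem exists_abelian_normal [Finite G] :
    ∃ A : Subgroup G, A.Normal ∧ (∀ x ∈ A, ∀ y ∈ A, x * y = y * x) ∧
      ∀ H : Subgroup G, (∀ x ∈ H, ∀ y ∈ H, x * y = y * x) →
        (A.subgroupOf H).index ≤ 12 ^ finrank ℂ E := by
  set A := Subgroup.closure {g | Small π g} with hA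
  refine ⟨A, ?_, ?_, fun H hH => index_small_le hπ H hH A fun g hg => Subgroup.subset_closure hg⟩
  · refine ⟨fun x hx k => ?_⟩
    induction hx using Subgroup.closure_induction with
    | mem w hw => exact Subgroup.subset_closure (small_conj hπ hw k)
    | one => simp
    | mul a b _ _ ha hb =>
      rw [show k * (a * b) * k⁻¹ = k * a * k⁻¹ * (k * b * k⁻¹) by group]; exact mul_mem ha hb
    | inv a _ ha => rw [show k * a⁻¹ * k⁻¹ = (k * a * k⁻¹)⁻¹ by group]; exact inv_mem ha
  · have h1 : A ≤ Subgroup.centralizer {g | Small π g} := by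
      rw [hA, Subgroup.closure_le]
      exact fun g hg => Subgroup.mem_centralizer_iff.mpr fun w hw => small_commute hπ hinj hw hg
    have h2 : A ≤ Subgroup.centralizer (A : Set G) := by
      rw [hA, Subgroup.closure_le]
      exact fun g hg => Subgroup.mem_centralizer_iff.mpr fun w hw =>
        (Subgroup.mem_centralizer_iff.mp (h1 hw) g hg).symm
    exact fun x hx y hy => (Subgroup.mem_centralizer_iff.mp (h2 hx) y hy).symm

omit hπ in
/-- Blichfeldt's theorem. -/
theorem exists_blichfeldt {G : Type u} [Group G] [Finite G] {χ : G → ℂ} (hχ : IsCharacter G χ)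
    (hfaith : ∀ g : G, χ g = χ 1 → g = 1) :
    ∃ A : Subgroup G, A.Normal ∧ (∀ x ∈ A, ∀ y ∈ A, x * y = y * x) ∧
      ∀ H : Subgroup G, (∀ x ∈ H, ∀ y ∈ H, x * y = y * x) →
        (A.subgroupOf H).index ≤ 12 ^ charDegree χ := by
  letI := Fintype.ofFinite G
  obtain ⟨n, ρ, rfl⟩ := hχ
  obtain ⟨E, i1, i2, i3, π, hn, hπ, hker⟩ := exists_unitary ρ
  have hinj : ∀ g, π g = 1 → g = 1 := fun g hg => hfaith g (by
    have h := hker g hg
    simp [Representation.character, h])
  obtain ⟨A, hA⟩ := exists_abelian_normal hπ hinj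
  rw [hn] at hA
  rw [Char.charDegree_eq_of_apply_one (n := n) (by simp [Representation.character])]
  exact ⟨A, hA⟩

end Cfsg.Agent.Lib.Blichfeldt
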